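import Mathlib
import Cfsg.Prelude.Def_GeometricClasses
import Cfsg.Prelude.Def_ClassicalGeometry
import Cfsg.Prelude.Def_Transfer

/-!
# X32 project (S6002): interface

`R` is an extraspecial group `2^{1+4}_-` inside `Sp_4(p)`; `N(R)` its normalizer.
All equations are equations in `GL (Fin 2 ⊕ Fin 2) F` (which has a negation), unless they
mention traces or ranks.
-/

set_option autoImplicit false
open scoped MatrixGroups Matrix
open Cfsg

namespace Cfsg.Agent.Lib.Helper6.X32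

universe u

/-- the index type `Fin 2 ⊕ Fin 2` -/
abbrev I4 : Type := Fin 2 ⊕ Fin 2
/-- `GL_4(F)` on the index type `Fin 2 ⊕ Fin 2` -/
abbrev GL4 (F : Type u) [Field F] : Type u := GL (Fin 2 ⊕ Fin 2) F
/-- `4 × 4` matrices on the index type `Fin 2 ⊕ Fin 2` -/
abbrev M4 (F : Type u) [Field F] : Type u := Matrix (Fin 2 ⊕ Fin 2) (Fin 2 ⊕ Fin 2) F

variable {F : Type u} [Field F]

/-- `y` is a scalar matrix. -/
def IsScalar (y : GL4 F) : Prop := ∃ z : F, (y : M4 F) = z • (1 : M4 F)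

/-- The concrete facts about `R = 2^{1+4}_-` used everywhere. -/
structure RFacts (R : Subgroup (GL4 F)) : Prop where
  card : Nat.card R = 32
  two_ne : (2 : F) ≠ 0
  negOne : (-1 : GL4 F) ∈ R
  sq : ∀ g ∈ R, g * g = 1 ∨ g * g = -1
  comm : ∀ g ∈ R, ∀ k ∈ R, g * k = k * g ∨ g * k = -(k * g)
  center : ∀ g ∈ R, (∀ k ∈ R, g * k = k * g) → g = 1 ∨ g = -1
  commutant : ∀ X : M4 F, (∀ g ∈ R, X * (g : M4 F) = (g : M4 F) * X) → ∃ c : F, X = c • (1 : M4 F)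
  minus : ∀ a ∈ R, ∀ b ∈ R, a * a = 1 → b * b = 1 → a * b = b * a →
    a = 1 ∨ a = -1 ∨ b = 1 ∨ b = -1 ∨ a = b ∨ a = -b

/-- `a, b` anticommuting involutions of `R`, and `i, j` anticommuting elements of order 4 of `R`
commuting with `a` and `b`: `R = ⟨a, b⟩ ∘ ⟨i, j⟩ = D_8 ∘ Q_8`. -/
structure Quad (R : Subgroup (GL4 F)) (a b i j : GL4 F) : Prop where
  ha : a ∈ R
  hb : b ∈ R
  hi : i ∈ R
  hj : j ∈ R
  aa : a * a = 1
  bb : b * b = 1
  ab : a * b = -(b * a)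
  ii : i * i = -1
  jj : j * j = -1
  ij : i * j = -(j * i)
  ia : i * a = a * i
  ib : i * b = b * i
  ja : j * a = a * j
  jb : j * b = b * j

/-- The conclusion of the enumeration package: `R = ±{1,a,b,ab}·{1,i,j,ij}`. -/
def Enum (R : Subgroup (GL4 F)) (a b i j : GL4 F) : Prop :=
  ∀ g ∈ R, ∃ d ∈ ({1, a, b, a * b} : Set (GL4 F)), ∃ c ∈ ({1, i, j, i * j} : Set (GL4 F)),
    g = d * c ∨ g = -(d * c)

/-- A frame: the five pairs `±h i` are exactly the non-central involutions of `R`; the `h i`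
anticommute pairwise and generate `R`. -/
structure Frame (R : Subgroup (GL4 F)) (h : Fin 5 → GL4 F) : Prop where
  mem : ∀ i, h i ∈ R
  sq : ∀ i, h i * h i = 1
  anti : ∀ i j, i ≠ j → h i * h j = -(h j * h i)
  inv : ∀ g ∈ R, g * g = 1 → g = 1 ∨ g = -1 ∨ ∃ i, g = h i ∨ g = -h i
  gen : Subgroup.closure (Set.range h) = R

/-- `y` permutes the frame up to sign, by the permutation `σ`. -/
def PermOf (h : Fin 5 → GL4 F) (y : GL4 F) (σ : Equiv.Perm (Fin 5)) : Prop :=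
  ∀ i, y * h i * y⁻¹ = h (σ i) ∨ y * h i * y⁻¹ = -h (σ i)

/-- The number of elements of `R` commuting with `y`. -/
noncomputable def cfix (R : Subgroup (GL4 F)) (y : GL4 F) : ℕ :=
  Nat.card {g : GL4 F // g ∈ R ∧ y * g = g * y}

/-! ## Structure of `R` -/

/-- [SEXT] (abstract groups) symplectic type, exponent 4, order 32, centre of order 2 ⟹ extraspecial. -/
def PkgSExt : Prop := ∀ {G : Type u} [Group G], IsPGroup 2 G →
  (∀ A : Subgroup G, A.Characteristic → IsMulCommutative A → IsCyclic A) →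
  Monoid.exponent G = 4 → Nat.card G = 32 → Nat.card (Subgroup.center G) = 2 →
  Cfsg.IsExtraspecial 2 G

/-- [SFACTS] -/
def PkgSFacts : Prop := ∀ {F : Type u} [Field F] (R : Subgroup (GL4 F)), (2 : F) ≠ 0 →
  Cfsg.IsExtraspecial 2 ↥R → Nat.card R = 32 →
  Cfsg.Geo.ActsAbsolutelyIrreducibly (Cfsg.Geo.matrixSet R) → Cfsg.Geo.IsOfMinusType 2 R →
  RFacts R

/-- [FRA] two anticommuting involutions exist. -/
def PkgFrA : Prop := ∀ {F : Type u} [Field F] (R : Subgroup (GL4 F)), RFacts R →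
  ∃ a ∈ R, ∃ b ∈ R, a * a = 1 ∧ b * b = 1 ∧ a * b = -(b * a)

/-- [FRB] the quaternion part. -/
def PkgFrB : Prop := ∀ {F : Type u} [Field F] (R : Subgroup (GL4 F)), RFacts R →
  ∀ a ∈ R, ∀ b ∈ R, a * a = 1 → b * b = 1 → a * b = -(b * a) → ∃ i j, Quad R a b i j

/-- [FRC] enumeration of `R`. -/
def PkgFrC : Prop := ∀ {F : Type u} [Field F] (R : Subgroup (GL4 F)) (a b i j : GL4 F), RFacts R →
  Quad R a b i j → Enum R a b i j

/-- [FRD] the frame. -/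
def PkgFrD : Prop := ∀ {F : Type u} [Field F] (R : Subgroup (GL4 F)) (a b i j : GL4 F), RFacts R →
  Quad R a b i j → Enum R a b i j → Frame R ![a, b, a * b * i, a * b * j, a * b * (i * j)]

/-! ## The normalizer of `R` -/

/-- [PERM] the normalizer permutes the frame up to sign. -/
def PkgPerm : Prop := ∀ {F : Type u} [Field F] (R : Subgroup (GL4 F)) (h : Fin 5 → GL4 F), RFacts R →
  Frame R h → ∀ y ∈ Cfsg.Geo.subgroupNormalizer R, ∃ σ : Equiv.Perm (Fin 5), PermOf h y σ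

/-- [NOBIG] no element of prime order `≥ 7` modulo scalars. -/
def PkgNoBig : Prop := ∀ {F : Type u} [Field F] (R : Subgroup (GL4 F)) (h : Fin 5 → GL4 F), RFacts R →
  Frame R h → ∀ (y : GL4 F) (σ : Equiv.Perm (Fin 5)), PermOf h y σ →
  ∀ r : ℕ, r.Prime → 7 ≤ r → IsScalar (y ^ r) → IsScalar y

/-- [NOTRV] no transvection. -/
def PkgNoTrv : Prop := ∀ {F : Type u} [Field F] (R : Subgroup (GL4 F)) (h : Fin 5 → GL4 F), RFacts R →
  Frame R h → ∀ (t : GL4 F) (σ : Equiv.Perm (Fin 5)), PermOf h t σ →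
  ((t : M4 F) - 1).rank ≤ 1 → t = 1

/-- [N3] elements of order 3 centralize exactly 8 elements of `R`. -/
def PkgN3 : Prop := ∀ {F : Type u} [Field F] (R : Subgroup (GL4 F)) (h : Fin 5 → GL4 F), RFacts R →
  Frame R h → ∀ y ∈ Cfsg.Geo.subgroupNormalizer R, ∀ σ : Equiv.Perm (Fin 5), PermOf h y σ →
  y ^ 3 = 1 → ¬ IsScalar y → cfix R y = 8

/-- [N5] elements of order 5 centralize exactly 2 elements of `R`. -/
def PkgN5 : Prop := ∀ {F : Type u} [Field F] (R : Subgroup (GL4 F)), RFacts R →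
  ∀ y ∈ Cfsg.Geo.subgroupNormalizer R, y ^ 5 = 1 → ¬ IsScalar y → cfix R y = 2

/-- [TRID] the trace identity. -/
def PkgTrId : Prop := ∀ {F : Type u} [Field F] (R : Subgroup (GL4 F)), RFacts R →
  ∀ y ∈ Cfsg.Geo.subgroupNormalizer R, (∀ g ∈ R, y * g * y⁻¹ ≠ -g) →
  2 * Matrix.trace (y : M4 F) * Matrix.trace ((y⁻¹ : GL4 F) : M4 F) = (cfix R y : F)

/-! ## The symplectic group -/

/-- [TRSP] -/
def PkgTrSp : Prop := ∀ {F : Type u} [Field F], ∀ x ∈ Cfsg.spGL 2 F,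
  Matrix.trace ((x⁻¹ : GL4 F) : M4 F) = Matrix.trace (x : M4 F)

/-- [SPSCAL] -/
def PkgSpScal : Prop := ∀ {F : Type u} [Field F], ∀ x ∈ Cfsg.spGL 2 F, ∀ z : F,
  (x : M4 F) = z • (1 : M4 F) → z * z = 1

/-- [SPBASIS] a family with the Gram matrix of the standard basis is the image of the standard basis
under an element of `Sp_4`. -/
def PkgSpBasis : Prop := ∀ {F : Type u} [Field F] (B : I4 → I4 → F),
  (∀ a b : I4, Cfsg.sympForm 2 F (B a) (B b) =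
    Cfsg.sympForm 2 F (Pi.single a 1) (Pi.single b 1)) →
  ∃ g ∈ Cfsg.spGL 2 F, ∀ a : I4, (g : M4 F) *ᵥ (Pi.single a 1) = B a

/-- [CJP] non-central involutions of `Sp_4(F)` are conjugate. -/
def PkgCJP : Prop := ∀ {F : Type u} [Field F], (2 : F) ≠ 0 →
  ∀ x ∈ Cfsg.spGL 2 F, ∀ y ∈ Cfsg.spGL 2 F, x * x = 1 → y * y = 1 →
  x ≠ 1 → x ≠ -1 → y ≠ 1 → y ≠ -1 → ∃ g ∈ Cfsg.spGL 2 F, g⁻¹ * x * g = y

/-- [CJM] elements with square `-1` of `Sp_4(F)`, `F` finite of odd characteristic, are conjugate. -/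
def PkgCJM : Prop := ∀ {F : Type u} [Field F] [Fintype F], (2 : F) ≠ 0 →
  ∀ x ∈ Cfsg.spGL 2 F, ∀ y ∈ Cfsg.spGL 2 F, x * x = -1 → y * y = -1 →
  ∃ g ∈ Cfsg.spGL 2 F, g⁻¹ * x * g = y

/-- [FPF5] elements of order 5 have no fixed vectors when `p` has order 4 mod 5. -/
def PkgFpf5 : Prop := ∀ {F : Type u} [Field F] [Fintype F] {p : ℕ} [Fact p.Prime] [CharP F p],
  Fintype.card F = p → orderOf (p : ZMod 5) = 4 →
  ∀ c : GL4 F, c ^ 5 = 1 → c ≠ 1 → ∀ v : I4 → F, (c : M4 F) *ᵥ v = v → v = 0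

/-- [COMM5] commuting elements of order 5. -/
def PkgComm5 : Prop := ∀ {F : Type u} [Field F], (5 : F) ≠ 0 →
  (∀ c : GL4 F, c ^ 5 = 1 → c ≠ 1 → ∀ v : I4 → F, (c : M4 F) *ᵥ v = v → v = 0) →
  ∀ c c' : GL4 F, c ^ 5 = 1 → c ≠ 1 → c' ^ 5 = 1 → c * c' = c' * c → c' ∈ Subgroup.zpowers c

/-- [SYL5] (abstract groups). -/
def PkgSyl5 : Prop := ∀ {G : Type u} [Group G] [Finite G] (H : Subgroup G),
  (∀ c c' : G, c ^ 5 = 1 → c ≠ 1 → c' ^ 5 = 1 → c * c' = c' * c → c' ∈ Subgroup.zpowers c) →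
  ∀ x ∈ H, ∀ y ∈ H, x ^ 5 = 1 → x ≠ 1 → y ^ 5 = 1 → y ≠ 1 →
  ∃ g ∈ H, ∃ k : ℕ, g⁻¹ * x * g = y ^ k

/-- [X3] an element of order 3 with trace 1. -/
def PkgX3 : Prop := ∀ {F : Type u} [Field F],
  ∃ x ∈ Cfsg.spGL 2 F, x ^ 3 = 1 ∧ Matrix.trace (x : M4 F) = 1 ∧ ¬ IsScalar x

/-- [QR5] -/
def PkgQR5 : Prop := ∀ {F : Type u} [Field F] [Fintype F] {p : ℕ} [Fact p.Prime] [CharP F p],
  Fintype.card F = p → Odd p → (orderOf (p : ZMod 5) = 1 ∨ orderOf (p : ZMod 5) = 2) →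
  ∃ τ : F, τ * τ + τ - 1 = 0

/-- [X5] an element of order 5 with trace `2 + τ`. -/
def PkgX5 : Prop := ∀ {F : Type u} [Field F] (τ : F), τ * τ + τ - 1 = 0 →
  ∃ x ∈ Cfsg.spGL 2 F, x ^ 5 = 1 ∧ Matrix.trace (x : M4 F) = 2 + τ ∧ ¬ IsScalar x

/-- [TRVEX] a transvection. -/
def PkgTrvEx : Prop := ∀ {F : Type u} [Field F] {p : ℕ} [Fact p.Prime] [CharP F p],
  ∃ t ∈ Cfsg.spGL 2 F, t ^ p = 1 ∧ t ≠ 1 ∧ ((t : M4 F) - 1).rank ≤ 1

/-- [EX5A] an element of `Sp_4` cycling the frame. -/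
def PkgEx5A : Prop := ∀ {F : Type u} [Field F] (R : Subgroup (GL4 F)) (h : Fin 5 → GL4 F), RFacts R →
  Frame R h → R ≤ Cfsg.spGL 2 F →
  ∃ y ∈ Cfsg.spGL 2 F, ∀ i : Fin 5, y * h i * y⁻¹ = h (i + 1)

/-- [EX5B] an element of order 5 in `Sp_4 ∩ N(R)`. -/
def PkgEx5B : Prop := ∀ {F : Type u} [Field F] (R : Subgroup (GL4 F)) (h : Fin 5 → GL4 F), RFacts R →
  Frame R h → R ≤ Cfsg.spGL 2 F →
  (∃ y ∈ Cfsg.spGL 2 F, ∀ i : Fin 5, y * h i * y⁻¹ = h (i + 1)) →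
  ∃ y ∈ Cfsg.spGL 2 F, y ∈ Cfsg.Geo.subgroupNormalizer R ∧ y ^ 5 = 1 ∧ y ≠ 1

end Cfsg.Agent.Lib.Helper6.X32
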