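import Cfsg.Agent.Lib.Helper6.X32.Defs

/-!
# X32 project (S6002): assembly from the packages
-/

set_option autoImplicit false
open scoped MatrixGroups Matrix
open Cfsg

namespace Cfsg.Agent.Lib.Helper6.X32

universe u

variable {F : Type u} [Field F]

theorem x32_val_neg (g : GL4 F) : ((-g : GL4 F) : M4 F) = -(g : M4 F) := Units.val_neg g

theorem x32_scalar_conj (g x : GL4 F) (h : IsScalar (g⁻¹ * x * g)) : IsScalar x := by
  obtain ⟨z, hz⟩ := h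
  refine ⟨z, ?_⟩
  have hx : x = g * (g⁻¹ * x * g) * g⁻¹ := by group
  rw [hx, Units.val_mul, Units.val_mul, hz, Matrix.mul_smul, Matrix.mul_one, Matrix.smul_mul,
    ← Units.val_mul, mul_inv_cancel, Units.val_one]

theorem x32_trace_conj (g x : GL4 F) :
    Matrix.trace ((g⁻¹ * x * g : GL4 F) : M4 F) = Matrix.trace (x : M4 F) := by
  rw [Units.val_mul, Units.val_mul, Matrix.trace_mul_cycle, ← Units.val_mul, mul_inv_cancel,
    Units.val_one, Matrix.one_mul]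

theorem x32_rank_conj (g x : GL4 F) :
    (((g⁻¹ * x * g : GL4 F) : M4 F) - 1).rank ≤ ((x : M4 F) - 1).rank := by
  have h : ((g⁻¹ * x * g : GL4 F) : M4 F) - 1 = ((g⁻¹ : GL4 F) : M4 F) * ((x : M4 F) - 1) * (g : M4 F) := by
    rw [Matrix.mul_sub, Matrix.sub_mul, Matrix.mul_one, ← Units.val_mul, ← Units.val_mul,
      ← Units.val_mul, inv_mul_cancel, Units.val_one]
  rw [h]
  exact (Matrix.rank_mul_le_left _ _).trans (Matrix.rank_mul_le_right _ _)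

theorem x32_scalar_rank (c : F) (h : ((c • (1 : M4 F))).rank ≤ 1) : c = 0 := by
  by_contra hc
  have hu : IsUnit (c • (1 : M4 F)) := by
    refine ⟨⟨c • 1, c⁻¹ • 1, ?_, ?_⟩, rfl⟩
    · rw [Matrix.smul_mul, Matrix.mul_smul, Matrix.mul_one, smul_smul, mul_inv_cancel₀ hc, one_smul]
    · rw [Matrix.smul_mul, Matrix.mul_smul, Matrix.mul_one, smul_smul, inv_mul_cancel₀ hc, one_smul]
  have h4 : (c • (1 : M4 F)).rank = Fintype.card I4 := by
    obtain ⟨v, hv⟩ := hu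
    rw [← hv]
    exact Matrix.rank_unit v
  rw [h4] at h
  simp [I4] at h

theorem x32_conj_pow_neg (two_ne : (2 : F) ≠ 0) (y k : GL4 F) (hk : y * k * y⁻¹ = -k) (n : ℕ)
    (hn : Odd n) (hy : y ^ n = 1) : False := by
  have key : ∀ m : ℕ, y ^ m * k * (y ^ m)⁻¹ = (-1 : GL4 F) ^ m * k := by
    intro m
    induction m with
    | zero => simp
    | succ m ih =>
      have h1 : y ^ (m + 1) * k * (y ^ (m + 1))⁻¹ = y * (y ^ m * k * (y ^ m)⁻¹) * y⁻¹ := by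
        rw [pow_succ']; group
      rw [h1, ih]
      have h2 : y * ((-1 : GL4 F) ^ m * k) * y⁻¹ = (-1 : GL4 F) ^ m * (y * k * y⁻¹) := by
        rcases Nat.even_or_odd m with hm | hm
        · rw [hm.neg_one_pow]; group
        · rw [hm.neg_one_pow]; simp [mul_assoc]
      rw [h2, hk, pow_succ]
      simp
  have h := key n
  rw [hy, hn.neg_one_pow] at h
  have h' : k = -k := by simpa using h
  have h2 : (k : M4 F) = -(k : M4 F) := by
    conv_lhs => rw [h']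
    exact Units.val_neg k
  have h3 : (2 : F) • (k : M4 F) = 0 := by
    rw [two_smul]
    nth_rewrite 1 [h2]
    exact neg_add_cancel _
  have h4 : (k : M4 F) = 0 := by
    rcases smul_eq_zero.mp h3 with h | h
    · exact absurd h two_ne
    · exact h
  have h5 : (k : M4 F) * ((k⁻¹ : GL4 F) : M4 F) = 1 := by
    rw [← Units.val_mul, mul_inv_cancel, Units.val_one]
  rw [h4, Matrix.zero_mul] at h5
  have h6 := congrFun (congrFun h5 (Sum.inl 0)) (Sum.inl 0)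
  simp at h6

theorem x32_two_ne [Fintype F] {p : ℕ} [Fact p.Prime] [CharP F p] (hodd : Odd p) : (2 : F) ≠ 0 := by
  intro h
  have h2 : ((2 : ℕ) : F) = 0 := by exact_mod_cast h
  rw [CharP.cast_eq_zero_iff F p] at h2
  have hp : p = 2 := (Nat.prime_dvd_prime_iff_eq (Fact.out : p.Prime) Nat.prime_two).mp h2
  subst hp
  exact absurd hodd (by decide)

theorem x32_rfacts (pSExt : PkgSExt.{u}) (pSFacts : PkgSFacts.{u})
    (R : Subgroup (GL4 F)) (two_ne : (2 : F) ≠ 0)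
    (hRs : Cfsg.Geo.IsSymplecticTypeGroup 2 R)
    (hRi : Cfsg.Geo.ActsAbsolutelyIrreducibly (Cfsg.Geo.matrixSet R))
    (hR5 : Nat.card R = 2 ^ 5) (hRZ : Nat.card (Subgroup.center R) = 2)
    (hRm : Cfsg.Geo.IsOfMinusType 2 R) : RFacts R := by
  have hexp : Monoid.exponent R = 4 := by
    rw [hRs.exponent_eq]; rfl
  have h32 : Nat.card R = 32 := by rw [hR5]; norm_num
  have hES : Cfsg.IsExtraspecial 2 ↥R :=
    pSExt hRs.pGroup hRs.cyclic_of_characteristic hexp h32 hRZ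
  exact pSFacts R two_ne hES h32 hRi hRm

theorem x32_frame (pFrA : PkgFrA.{u}) (pFrB : PkgFrB.{u}) (pFrC : PkgFrC.{u}) (pFrD : PkgFrD.{u})
    (R : Subgroup (GL4 F)) (hRF : RFacts R) : ∃ h : Fin 5 → GL4 F, Frame R h := by
  obtain ⟨a, ha, b, hb, haa, hbb, hab⟩ := pFrA R hRF
  obtain ⟨i, j, hQ⟩ := pFrB R hRF a ha b hb haa hbb hab
  exact ⟨_, pFrD R a b i j hRF hQ (pFrC R a b i j hRF hQ)⟩

theorem x32_frame_ne_one {R : Subgroup (GL4 F)} {h : Fin 5 → GL4 F} (hRF : RFacts R)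
    (hFr : Frame R h) : h 0 ≠ 1 ∧ h 0 ≠ -1 := by
  have hanti := hFr.anti 0 1 (by decide)
  have key : ∀ e : GL4 F, e * h 1 = h 1 * e → h 0 ≠ e := by
    intro e he h0
    rw [h0, he] at hanti
    have h2 : ((h 1 * e : GL4 F) : M4 F) = -((h 1 * e : GL4 F) : M4 F) := by
      conv_lhs => rw [hanti]
      exact Units.val_neg _
    have h3 : (2 : F) • ((h 1 * e : GL4 F) : M4 F) = 0 := by
      rw [two_smul]
      nth_rewrite 1 [h2]
      exact neg_add_cancel _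
    have h4 : ((h 1 * e : GL4 F) : M4 F) = 0 := by
      rcases smul_eq_zero.mp h3 with h | h
      · exact absurd h hRF.two_ne
      · exact h
    have h5 : ((h 1 * e : GL4 F) : M4 F) * (((h 1 * e)⁻¹ : GL4 F) : M4 F) = 1 := by
      rw [← Units.val_mul, mul_inv_cancel, Units.val_one]
    rw [h4, Matrix.zero_mul] at h5
    have h6 := congrFun (congrFun h5 (Sum.inl 0)) (Sum.inl 0)
    simp at h6
  exact ⟨key 1 (by simp), key (-1) (by simp)⟩

theorem x32_not_scalar_ne {x : GL4 F}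
    (hns : ∀ z : F, (x : M4 F) ≠ z • (1 : M4 F)) : x ≠ 1 ∧ x ≠ -1 := by
  constructor
  · rintro rfl
    exact hns 1 (by simp)
  · rintro rfl
    exact hns (-1) (by rw [Units.val_neg, Units.val_one, neg_smul, one_smul])

theorem x32_sq_cases {z : F} (hz : z * z = 1) : z = 1 ∨ z = -1 :=
  mul_self_eq_one_iff.mp hz

theorem x32_negOne_mem_normalizer {R : Subgroup (GL4 F)} (hRF : RFacts R) :
    (-1 : GL4 F) ∈ Cfsg.Geo.subgroupNormalizer R :=
  Subgroup.le_normalizer hRF.negOne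

/-- `r = 2`: every non-scalar `x ∈ Sp` with `x²` scalar is conjugate into `R ≤ N(R)`. -/
theorem x32_back2 (pSpScal : PkgSpScal.{u}) (pCJP : PkgCJP.{u}) (pCJM : PkgCJM.{u}) [Fintype F]
    (R : Subgroup (GL4 F)) (h : Fin 5 → GL4 F) (hRF : RFacts R) (hFr : Frame R h)
    (hRf : R ≤ Cfsg.spGL 2 F) (x : GL4 F) (hx : x ∈ Cfsg.spGL 2 F)
    (hsc : ∃ z : F, ((x ^ 2 : GL4 F) : M4 F) = z • (1 : M4 F))
    (hns : ∀ z : F, (x : M4 F) ≠ z • (1 : M4 F)) :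
    ∃ g ∈ Cfsg.spGL 2 F, g⁻¹ * x * g ∈ Cfsg.Geo.subgroupNormalizer R := by
  obtain ⟨z, hz⟩ := hsc
  have hzz := pSpScal (x ^ 2) (pow_mem hx 2) z hz
  obtain ⟨hx1, hxm1⟩ := x32_not_scalar_ne hns
  rcases x32_sq_cases hzz with rfl | rfl
  · have hxx : x * x = 1 := by
      apply Units.ext
      rw [← pow_two, hz, one_smul, Units.val_one]
    obtain ⟨h01, h0m1⟩ := x32_frame_ne_one hRF hFr
    obtain ⟨g, hg, hgx⟩ := pCJP hRF.two_ne x hx (h 0) (hRf (hFr.mem 0)) hxx (hFr.sq 0) hx1 hxm1 h01 h0m1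
    exact ⟨g, hg, hgx ▸ Subgroup.le_normalizer (hFr.mem 0)⟩
  · have hxx : x * x = -1 := by
      apply Units.ext
      rw [← pow_two, hz, Units.val_neg, Units.val_one, neg_smul, one_smul]
    have hk : h 0 * h 1 ∈ R := R.mul_mem (hFr.mem 0) (hFr.mem 1)
    have hkk : (h 0 * h 1) * (h 0 * h 1) = -1 := by
      have hanti := hFr.anti 1 0 (by decide)
      calc (h 0 * h 1) * (h 0 * h 1) = h 0 * (h 1 * h 0) * h 1 := by group
        _ = h 0 * (-(h 0 * h 1)) * h 1 := by rw [hanti]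
        _ = -((h 0 * h 0) * (h 1 * h 1)) := by simp [mul_assoc]
        _ = -1 := by rw [hFr.sq 0, hFr.sq 1, one_mul]
    obtain ⟨g, hg, hgx⟩ := pCJM hRF.two_ne x hx (h 0 * h 1) (hRf hk) hxx hkk
    exact ⟨g, hg, hgx ▸ Subgroup.le_normalizer hk⟩

theorem x32_five_ne [Fintype F] {p : ℕ} [Fact p.Prime] [CharP F p] (hp5 : p ≠ 5) : (5 : F) ≠ 0 := by
  intro h
  have h2 : ((5 : ℕ) : F) = 0 := by exact_mod_cast h
  rw [CharP.cast_eq_zero_iff F p] at h2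
  exact hp5 ((Nat.prime_dvd_prime_iff_eq (Fact.out : p.Prime) (by norm_num)).mp h2)

theorem x32_ord4_ne {p : ℕ} (hord : orderOf (p : ZMod 5) = 4) : p ≠ 5 := by
  rintro rfl
  have h := pow_orderOf_eq_one ((5 : ℕ) : ZMod 5)
  rw [hord] at h
  revert h
  decide

/-- `r = 5`, `p` of order 4 mod 5. -/
theorem x32_back5 (pSpScal : PkgSpScal.{u}) (pFpf5 : PkgFpf5.{u}) (pComm5 : PkgComm5.{u})
    (pSyl5 : PkgSyl5.{u}) (pEx5A : PkgEx5A.{u}) (pEx5B : PkgEx5B.{u})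
    [Fintype F] {p : ℕ} [Fact p.Prime] [CharP F p] (hF : Fintype.card F = p)
    (hord : orderOf (p : ZMod 5) = 4)
    (R : Subgroup (GL4 F)) (h : Fin 5 → GL4 F) (hRF : RFacts R) (hFr : Frame R h)
    (hRf : R ≤ Cfsg.spGL 2 F) (x : GL4 F) (hx : x ∈ Cfsg.spGL 2 F)
    (hsc : ∃ z : F, ((x ^ 5 : GL4 F) : M4 F) = z • (1 : M4 F))
    (hns : ∀ z : F, (x : M4 F) ≠ z • (1 : M4 F)) :
    ∃ g ∈ Cfsg.spGL 2 F, g⁻¹ * x * g ∈ Cfsg.Geo.subgroupNormalizer R := by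
  classical
  obtain ⟨z, hz⟩ := hsc
  have hzz := pSpScal (x ^ 5) (pow_mem hx 5) z hz
  obtain ⟨hx1, hxm1⟩ := x32_not_scalar_ne hns
  obtain ⟨y, hy, hyN, hy5, hy1⟩ := pEx5B R h hRF hFr hRf (pEx5A R h hRF hFr hRf)
  have h5 : (5 : F) ≠ 0 := x32_five_ne (x32_ord4_ne hord)
  have hcomm := pComm5 h5 (pFpf5 hF hord)
  have hfin : Finite (GL4 F) := inferInstance
  rcases x32_sq_cases hzz with rfl | rfl
  · have hx5 : x ^ 5 = 1 := by
      apply Units.ext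
      rw [hz, one_smul, Units.val_one]
    obtain ⟨g, hg, k, hgk⟩ := pSyl5 (Cfsg.spGL 2 F) hcomm x hx y hy hx5 hx1 hy5 hy1
    exact ⟨g, hg, hgk ▸ pow_mem hyN k⟩
  · have hx5 : x ^ 5 = -1 := by
      apply Units.ext
      rw [hz, Units.val_neg, Units.val_one, neg_smul, one_smul]
    have hnx : -x ∈ Cfsg.spGL 2 F := by
      have : -x = (-1 : GL4 F) * x := by simp
      rw [this]
      exact mul_mem (hRf hRF.negOne) hx
    have hnx5 : (-x) ^ 5 = 1 := by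
      rw [Odd.neg_pow (by decide), hx5, neg_neg]
    have hnx1 : -x ≠ 1 := by
      intro h1
      apply hxm1
      rw [← neg_neg x, h1]
    obtain ⟨g, hg, k, hgk⟩ := pSyl5 (Cfsg.spGL 2 F) hcomm (-x) hnx y hy hnx5 hnx1 hy5 hy1
    refine ⟨g, hg, ?_⟩
    have h2 : g⁻¹ * x * g = (-1 : GL4 F) * y ^ k := by
      rw [← hgk]; simp
    rw [h2]
    exact mul_mem (x32_negOne_mem_normalizer hRF) (pow_mem hyN k)

/-- conjugation data used in all forward cases -/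
theorem x32_conj_pow (g x : GL4 F) (n : ℕ) : (g⁻¹ * x * g) ^ n = g⁻¹ * x ^ n * g := by
  induction n with
  | zero => simp
  | succ n ih => rw [pow_succ, ih, pow_succ]; group

/-- `r = p`: a transvection is not conjugate into `N(R)`. -/
theorem x32_fwd_p (pTrvEx : PkgTrvEx.{u}) (pPerm : PkgPerm.{u}) (pNoTrv : PkgNoTrv.{u})
    {p : ℕ} [Fact p.Prime] [CharP F p]
    (R : Subgroup (GL4 F)) (h : Fin 5 → GL4 F) (hRF : RFacts R) (hFr : Frame R h)
    (hall : ∀ x ∈ Cfsg.spGL 2 F, (∃ z : F, ((x ^ p : GL4 F) : M4 F) = z • (1 : M4 F)) →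
      (∀ z : F, (x : M4 F) ≠ z • (1 : M4 F)) →
      ∃ g ∈ Cfsg.spGL 2 F, g⁻¹ * x * g ∈ Cfsg.Geo.subgroupNormalizer R) : False := by
  obtain ⟨t, ht, htp, ht1, htr⟩ := pTrvEx (F := F) (p := p)
  have hns : ∀ z : F, (t : M4 F) ≠ z • (1 : M4 F) := by
    intro z hz
    have h1 : (t : M4 F) - 1 = (z - 1) • (1 : M4 F) := by rw [hz, sub_smul, one_smul]
    rw [h1] at htr
    have hz1 : z = 1 := sub_eq_zero.mp (x32_scalar_rank _ htr)
    apply ht1
    apply Units.ext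
    rw [hz, hz1, one_smul, Units.val_one]
  obtain ⟨g, hg, hgN⟩ := hall t ht ⟨1, by rw [htp, one_smul, Units.val_one]⟩ hns
  obtain ⟨σ, hσ⟩ := pPerm R h hRF hFr _ hgN
  have h1 := pNoTrv R h hRF hFr _ σ hσ ((x32_rank_conj g t).trans htr)
  apply ht1
  have : t = g * (g⁻¹ * t * g) * g⁻¹ := by group
  rw [this, h1]; group

/-- the common part of the cases `r = 3` and `r = 5`: a conjugate `y` of `x` in `N(R)` of odd
order `n` satisfies the trace identity with `tr y = tr x`. -/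
theorem x32_trace_eq (pTrId : PkgTrId.{u}) (pTrSp : PkgTrSp.{u})
    (R : Subgroup (GL4 F)) (hRF : RFacts R)
    (x g : GL4 F) (hx : x ∈ Cfsg.spGL 2 F) (hg : g ∈ Cfsg.spGL 2 F)
    (hgN : g⁻¹ * x * g ∈ Cfsg.Geo.subgroupNormalizer R) (n : ℕ) (hn : Odd n) (hxn : x ^ n = 1) :
    2 * Matrix.trace (x : M4 F) * Matrix.trace (x : M4 F) = (cfix R (g⁻¹ * x * g) : F) := by
  have hyn : (g⁻¹ * x * g) ^ n = 1 := by rw [x32_conj_pow, hxn]; group
  have hy : g⁻¹ * x * g ∈ Cfsg.spGL 2 F := mul_mem (mul_mem (inv_mem hg) hx) hg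
  have hne : ∀ k ∈ R, (g⁻¹ * x * g) * k * (g⁻¹ * x * g)⁻¹ ≠ -k := by
    intro k _ hk
    exact x32_conj_pow_neg hRF.two_ne _ k hk n hn hyn
  have h1 := pTrId R hRF _ hgN hne
  rw [pTrSp _ hy, x32_trace_conj] at h1
  exact h1

/-- `r = 3 ≠ p`. -/
theorem x32_fwd_3 (pX3 : PkgX3.{u}) (pPerm : PkgPerm.{u}) (pN3 : PkgN3.{u}) (pTrId : PkgTrId.{u})
    (pTrSp : PkgTrSp.{u})
    [Fintype F] {p : ℕ} [Fact p.Prime] [CharP F p] (hodd : Odd p) (hp3 : p ≠ 3)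
    (R : Subgroup (GL4 F)) (h : Fin 5 → GL4 F) (hRF : RFacts R) (hFr : Frame R h)
    (hall : ∀ x ∈ Cfsg.spGL 2 F, (∃ z : F, ((x ^ 3 : GL4 F) : M4 F) = z • (1 : M4 F)) →
      (∀ z : F, (x : M4 F) ≠ z • (1 : M4 F)) →
      ∃ g ∈ Cfsg.spGL 2 F, g⁻¹ * x * g ∈ Cfsg.Geo.subgroupNormalizer R) : False := by
  obtain ⟨x, hx, hx3, htr, hns⟩ := pX3 (F := F)
  obtain ⟨g, hg, hgN⟩ := hall x hx ⟨1, by rw [hx3, one_smul, Units.val_one]⟩
    (fun z hz => hns ⟨z, hz⟩)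
  obtain ⟨σ, hσ⟩ := pPerm R h hRF hFr _ hgN
  have hy3 : (g⁻¹ * x * g) ^ 3 = 1 := by rw [x32_conj_pow, hx3]; group
  have hyns : ¬ IsScalar (g⁻¹ * x * g) := fun hs => hns (x32_scalar_conj g x hs)
  have hc := pN3 R h hRF hFr _ hgN σ hσ hy3 hyns
  have ht := x32_trace_eq pTrId pTrSp R hRF x g hx hg hgN 3 (by decide) hx3
  rw [hc, htr] at ht
  have h6 : ((6 : ℕ) : F) = 0 := by
    push_cast
    have : (2 : F) * 1 * 1 = ((8 : ℕ) : F) := ht
    push_cast at this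
    linear_combination -this
  rw [CharP.cast_eq_zero_iff F p] at h6
  have hp : p ∣ 2 * 3 := h6
  rcases (Nat.Prime.dvd_mul (Fact.out : p.Prime)).mp hp with h2 | h3
  · have : p = 2 := (Nat.prime_dvd_prime_iff_eq (Fact.out : p.Prime) Nat.prime_two).mp h2
    subst this
    exact absurd hodd (by decide)
  · exact hp3 ((Nat.prime_dvd_prime_iff_eq (Fact.out : p.Prime) Nat.prime_three).mp h3)

theorem x32_ord_cases {p : ℕ} [Fact p.Prime] (hp5 : p ≠ 5) (hord : orderOf (p : ZMod 5) ≠ 4) :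
    orderOf (p : ZMod 5) = 1 ∨ orderOf (p : ZMod 5) = 2 := by
  have hne : (p : ZMod 5) ≠ 0 := by
    intro h0
    rw [ZMod.natCast_eq_zero_iff] at h0
    exact hp5 ((Nat.prime_dvd_prime_iff_eq (by norm_num) (Fact.out : p.Prime)).mp h0).symm
  have : Fact (Nat.Prime 5) := ⟨by norm_num⟩
  have h4 : (p : ZMod 5) ^ 4 = 1 := ZMod.pow_card_sub_one_eq_one hne
  have hd : orderOf (p : ZMod 5) ∣ 4 := orderOf_dvd_of_pow_eq_one h4
  have hle : orderOf (p : ZMod 5) ≤ 4 := Nat.le_of_dvd (by norm_num) hd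
  have hpos : 0 < orderOf (p : ZMod 5) := Nat.pos_of_dvd_of_pos hd (by norm_num)
  interval_cases hk : orderOf (p : ZMod 5)
  · left; rfl
  · right; rfl
  · exact absurd hd (by decide)
  · exact absurd rfl hord

/-- `r = 5 ≠ p`, `p` not of order 4 mod 5. -/
theorem x32_fwd_5 (pQR5 : PkgQR5.{u}) (pX5 : PkgX5.{u}) (pN5 : PkgN5.{u}) (pTrId : PkgTrId.{u})
    (pTrSp : PkgTrSp.{u})
    [Fintype F] {p : ℕ} [Fact p.Prime] [CharP F p] (hF : Fintype.card F = p) (hodd : Odd p)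
    (hp5 : p ≠ 5) (hord : orderOf (p : ZMod 5) ≠ 4)
    (R : Subgroup (GL4 F)) (hRF : RFacts R)
    (hall : ∀ x ∈ Cfsg.spGL 2 F, (∃ z : F, ((x ^ 5 : GL4 F) : M4 F) = z • (1 : M4 F)) →
      (∀ z : F, (x : M4 F) ≠ z • (1 : M4 F)) →
      ∃ g ∈ Cfsg.spGL 2 F, g⁻¹ * x * g ∈ Cfsg.Geo.subgroupNormalizer R) : False := by
  obtain ⟨τ, hτ⟩ := pQR5 hF hodd (x32_ord_cases hp5 hord)
  obtain ⟨x, hx, hx5, htr, hns⟩ := pX5 τ hτ
  obtain ⟨g, hg, hgN⟩ := hall x hx ⟨1, by rw [hx5, one_smul, Units.val_one]⟩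
    (fun z hz => hns ⟨z, hz⟩)
  have hy5 : (g⁻¹ * x * g) ^ 5 = 1 := by rw [x32_conj_pow, hx5]; group
  have hyns : ¬ IsScalar (g⁻¹ * x * g) := fun hs => hns (x32_scalar_conj g x hs)
  have hc := pN5 R hRF _ hgN hy5 hyns
  have ht := x32_trace_eq pTrId pTrSp R hRF x g hx hg hgN 5 (by decide) hx5
  rw [hc, htr] at ht
  push_cast at ht
  have h2 : (2 + τ) * (2 + τ) = 1 := by
    have h2' : (2 : F) * ((2 + τ) * (2 + τ) - 1) = 0 := by linear_combination ht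
    rcases mul_eq_zero.mp h2' with h | h
    · exact absurd h hRF.two_ne
    · exact sub_eq_zero.mp h
  have h3 : 3 * τ + 4 = 0 := by linear_combination h2 - hτ
  have h5 : (5 : F) = 0 := by linear_combination (-9) * hτ + (3 * τ - 1) * h3
  exact x32_five_ne hp5 h5

/-- `r ≥ 7`. -/
theorem x32_fwd_big (pSpScal : PkgSpScal.{u}) (pPerm : PkgPerm.{u}) (pNoBig : PkgNoBig.{u})
    [Fintype F]
    (R : Subgroup (GL4 F)) (h : Fin 5 → GL4 F) (hRF : RFacts R) (hFr : Frame R h)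
    (r : ℕ) [Fact r.Prime] (hr7 : 7 ≤ r)
    (hΩ : r ∣ (Cfsg.Geo.subgroupNormalizer R).relIndex (Cfsg.spGL 2 F))
    (hall : ∀ x ∈ Cfsg.spGL 2 F, (∃ z : F, ((x ^ r : GL4 F) : M4 F) = z • (1 : M4 F)) →
      (∀ z : F, (x : M4 F) ≠ z • (1 : M4 F)) →
      ∃ g ∈ Cfsg.spGL 2 F, g⁻¹ * x * g ∈ Cfsg.Geo.subgroupNormalizer R) : False := by
  classical
  have hfin : Finite (GL4 F) := inferInstance
  have hdvd : r ∣ Nat.card (Cfsg.spGL 2 F) := hΩ.trans (Subgroup.relIndex_dvd_card _ _)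
  obtain ⟨x, hxo⟩ := exists_prime_orderOf_dvd_card' r hdvd
  have hxr : (x : GL4 F) ^ r = 1 := by
    have h1 : x ^ r = 1 := by rw [← hxo]; exact pow_orderOf_eq_one x
    have h2 := congrArg (Subtype.val) h1
    simpa using h2
  have hns : ∀ z : F, ((x : GL4 F) : M4 F) ≠ z • (1 : M4 F) := by
    intro z hz
    have hzz := pSpScal (x : GL4 F) x.2 z hz
    have h2 : (x : GL4 F) * (x : GL4 F) = 1 := by
      apply Units.ext
      rw [Units.val_mul, hz, Matrix.smul_mul, Matrix.mul_smul, Matrix.mul_one, smul_smul, hzz,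
        one_smul, Units.val_one]
    have h3 : x ^ 2 = 1 := by
      apply Subtype.ext
      rw [pow_two]
      exact h2
    have h4 : orderOf x ∣ 2 := orderOf_dvd_of_pow_eq_one h3
    rw [hxo] at h4
    have := Nat.le_of_dvd (by norm_num) h4
    omega
  obtain ⟨g, hg, hgN⟩ := hall (x : GL4 F) x.2 ⟨1, by rw [hxr, one_smul, Units.val_one]⟩ hns
  obtain ⟨σ, hσ⟩ := pPerm R h hRF hFr _ hgN
  have hyr : (g⁻¹ * (x : GL4 F) * g) ^ r = 1 := by rw [x32_conj_pow, hxr]; group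
  have hs : IsScalar ((g⁻¹ * (x : GL4 F) * g) ^ r) := ⟨1, by rw [hyr, one_smul, Units.val_one]⟩
  have hs2 := pNoBig R h hRF hFr _ σ hσ r Fact.out hr7 hs
  obtain ⟨z, hz⟩ := x32_scalar_conj g _ hs2
  exact hns z hz

/-- The assembly. -/
theorem x32_main (pSExt : PkgSExt.{u}) (pSFacts : PkgSFacts.{u}) (pFrA : PkgFrA.{u})
    (pFrB : PkgFrB.{u}) (pFrC : PkgFrC.{u}) (pFrD : PkgFrD.{u}) (pPerm : PkgPerm.{u})
    (pNoBig : PkgNoBig.{u}) (pNoTrv : PkgNoTrv.{u}) (pN3 : PkgN3.{u}) (pN5 : PkgN5.{u})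
    (pTrId : PkgTrId.{u}) (pTrSp : PkgTrSp.{u}) (pSpScal : PkgSpScal.{u})
    (pCJP : PkgCJP.{u}) (pCJM : PkgCJM.{u}) (pFpf5 : PkgFpf5.{u}) (pComm5 : PkgComm5.{u})
    (pSyl5 : PkgSyl5.{u}) (pX3 : PkgX3.{u}) (pQR5 : PkgQR5.{u}) (pX5 : PkgX5.{u})
    (pTrvEx : PkgTrvEx.{u}) (pEx5A : PkgEx5A.{u}) (pEx5B : PkgEx5B.{u})
    {F : Type u} [Field F] [Fintype F] {p : ℕ} [Fact p.Prime] [CharP F p]
    (hF : Fintype.card F = p) (hodd : Odd p)
    (R : Subgroup (GL (Fin 2 ⊕ Fin 2) F)) (hRs : Cfsg.Geo.IsSymplecticTypeGroup 2 R)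
    (hRi : Cfsg.Geo.ActsAbsolutelyIrreducibly (Cfsg.Geo.matrixSet R))
    (hRf : R ≤ Cfsg.spGL 2 F) (hR5 : Nat.card R = 2 ^ 5)
    (hRZ : Nat.card (Subgroup.center R) = 2) (hRm : Cfsg.Geo.IsOfMinusType 2 R)
    (r : ℕ) [Fact r.Prime]
    (hΩ : r ∣ (Cfsg.Geo.subgroupNormalizer R).relIndex (Cfsg.spGL 2 F)) :
    (∀ x ∈ Cfsg.spGL 2 F, (∃ z : F, ((x ^ r : GL (Fin 2 ⊕ Fin 2) F) : Matrix (Fin 2 ⊕ Fin 2) (Fin 2 ⊕ Fin 2) F) = z • (1 : Matrix (Fin 2 ⊕ Fin 2) (Fin 2 ⊕ Fin 2) F)) →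
      (∀ z : F, (x : Matrix (Fin 2 ⊕ Fin 2) (Fin 2 ⊕ Fin 2) F) ≠ z • (1 : Matrix (Fin 2 ⊕ Fin 2) (Fin 2 ⊕ Fin 2) F)) →
      ∃ g ∈ Cfsg.spGL 2 F, g⁻¹ * x * g ∈ Cfsg.Geo.subgroupNormalizer R) ↔ (r = 2 ∨ (r = 5 ∧ orderOf (p : ZMod 5) = 4)) := by
  have two_ne : (2 : F) ≠ 0 := x32_two_ne hodd
  have hRF : RFacts R := x32_rfacts pSExt pSFacts R two_ne hRs hRi hR5 hRZ hRm
  obtain ⟨h, hFr⟩ := x32_frame pFrA pFrB pFrC pFrD R hRF
  constructor
  · intro hall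
    by_contra hne
    push Not at hne
    obtain ⟨hr2, hr5⟩ := hne
    by_cases hrp : r = p
    · subst hrp
      exact x32_fwd_p pTrvEx pPerm pNoTrv R h hRF hFr hall
    by_cases hr3 : r = 3
    · subst hr3
      exact x32_fwd_3 pX3 pPerm pN3 pTrId pTrSp hodd (fun h => hrp h.symm) R h hRF hFr hall
    by_cases hr5' : r = 5
    · subst hr5'
      exact x32_fwd_5 pQR5 pX5 pN5 pTrId pTrSp hF hodd (fun h => hrp h.symm) (hr5 rfl) R hRF hall
    · have hr7 : 7 ≤ r := by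
        have hpr : r.Prime := Fact.out
        by_contra hlt
        push Not at hlt
        interval_cases r
        · exact absurd hpr (by decide)
        · exact absurd hpr (by decide)
        · exact hr2 rfl
        · exact hr3 rfl
        · exact absurd hpr (by decide)
        · exact hr5' rfl
        · exact absurd hpr (by decide)
      exact x32_fwd_big pSpScal pPerm pNoBig R h hRF hFr r hr7 hΩ hall
  · rintro (rfl | ⟨rfl, hord⟩)
    · intro x hx hsc hns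
      exact x32_back2 pSpScal pCJP pCJM R h hRF hFr hRf x hx hsc hns
    · intro x hx hsc hns
      exact x32_back5 pSpScal pFpf5 pComm5 pSyl5 pEx5A pEx5B hF hord R h hRF hFr hRf x hx hsc hns

end Cfsg.Agent.Lib.Helper6.X32
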